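import Cfsg.Agent.Lib.Helper38.UGT.Defs
import Cfsg.Agent.Lib.Helper77.AschG.PT

/-! Ladder UGT, rung CHP (helper61; copy of helper62's ASU9/T2WG with a general m). -/

set_option autoImplicit false

namespace Cfsg.Agent.Lib.Helper38.UGT

open Cfsg Cfsg.Geo Cfsg.Agent.Lib.Helper77.Asch Cfsg.Agent.Lib.Helper77.AschG Cfsg.Agent.Lib.Helper32.AschU
  Cfsg.Agent.Lib.Helper80.AS Cfsg.Agent.Lib.Helper47.UC
open scoped MatrixGroups Matrix Kronecker

variable {n m : ℕ} {F : Type*} [Field F]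

theorem chp_map_conj {G : Type*} [Group G] (K : Subgroup G) (P k : G) (hk : k ∈ K) :
    K.map (MulAut.conj (P * k)).toMonoidHom = K.map (MulAut.conj P).toMonoidHom := by
  ext g
  constructor
  · rintro ⟨x, hx, rfl⟩
    refine ⟨k * x * k⁻¹, K.mul_mem (K.mul_mem hk hx) (K.inv_mem hk), ?_⟩
    simp [MulAut.conj_apply, mul_assoc]
  · rintro ⟨x, hx, rfl⟩
    refine ⟨k⁻¹ * x * k, K.mul_mem (K.mul_mem (K.inv_mem hk) hx) hk, ?_⟩
    simp [MulAut.conj_apply, mul_assoc]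

/-- the unit with matrix `C₁ ⊗ₖ C₂`. -/
def chpK (C₁ C₂ : GL (Fin m) F) : GL (Fin m × Fin m) F where
  val := (C₁ : Matrix (Fin m) (Fin m) F) ⊗ₖ (C₂ : Matrix (Fin m) (Fin m) F)
  inv := ((C₁⁻¹ : GL (Fin m) F) : Matrix (Fin m) (Fin m) F) ⊗ₖ ((C₂⁻¹ : GL (Fin m) F) : Matrix (Fin m) (Fin m) F)
  val_inv := by
    rw [← Matrix.mul_kronecker_mul, ← Units.val_mul, ← Units.val_mul, mul_inv_cancel, mul_inv_cancel,
      Units.val_one, Matrix.one_kronecker_one]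
  inv_val := by
    rw [← Matrix.mul_kronecker_mul, ← Units.val_mul, ← Units.val_mul, inv_mul_cancel, inv_mul_cancel,
      Units.val_one, Matrix.one_kronecker_one]

theorem chp_pt (C₁ C₂ : GL (Fin m) F) :
    ((glReindex (finTwoArrowEquiv (Fin m)).symm (chpK C₁ C₂) : GL (Fin 2 → Fin m) F) :
      Matrix (Fin 2 → Fin m) (Fin 2 → Fin m) F)
      = pt ![(C₁ : Matrix (Fin m) (Fin m) F), (C₂ : Matrix (Fin m) (Fin m) F)] := by
  ext u v
  rw [pt_apply, Fin.prod_univ_two]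
  change ((C₁ : Matrix (Fin m) (Fin m) F) ⊗ₖ (C₂ : Matrix (Fin m) (Fin m) F)) (finTwoArrowEquiv (Fin m) u)
      (finTwoArrowEquiv (Fin m) v) = _
  simp [Matrix.kroneckerMap_apply, finTwoArrowEquiv]

theorem chp_pt_inv (C₁ C₂ : GL (Fin m) F) :
    (((glReindex (finTwoArrowEquiv (Fin m)).symm (chpK C₁ C₂))⁻¹ : GL (Fin 2 → Fin m) F) :
      Matrix (Fin 2 → Fin m) (Fin 2 → Fin m) F)
      = pt ![((C₁⁻¹ : GL (Fin m) F) : Matrix (Fin m) (Fin m) F), ((C₂⁻¹ : GL (Fin m) F) : Matrix (Fin m) (Fin m) F)] := by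
  ext u v
  rw [pt_apply, Fin.prod_univ_two]
  change (((C₁⁻¹ : GL (Fin m) F) : Matrix (Fin m) (Fin m) F) ⊗ₖ ((C₂⁻¹ : GL (Fin m) F) : Matrix (Fin m) (Fin m) F))
      (finTwoArrowEquiv (Fin m) u) (finTwoArrowEquiv (Fin m) v) = _
  simp [Matrix.kroneckerMap_apply, finTwoArrowEquiv]

theorem chp_reindex (e : Fin n ≃ Fin m × Fin m) (k : GL (Fin m × Fin m) F) :
    glReindex e.symm k = glReindex (eW e).symm (glReindex (finTwoArrowEquiv (Fin m)).symm k) := by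
  apply Units.ext
  ext a b
  rfl

theorem exists_changeP {m : ℕ} (e : Fin n ≃ Fin m × Fin m) (P : GL (Fin n) F) (C₁ C₂ : GL (Fin m) F) :
    ∃ P' : GL (Fin n) F,
      (∀ x : Fin m × Fin m → F, (P' : Matrix (Fin n) (Fin n) F) *ᵥ (x ∘ e) = (P : Matrix (Fin n) (Fin n) F) *ᵥ
        ((((C₁ : Matrix (Fin m) (Fin m) F) ⊗ₖ (C₂ : Matrix (Fin m) (Fin m) F)) *ᵥ x) ∘ e)) ∧
      tensorWreathSubgroup m 2 (eW e) P' = tensorWreathSubgroup m 2 (eW e) P ∧
      tensorProductSubgroup m m e P' = tensorProductSubgroup m m e P := by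
  refine ⟨P * glReindex e.symm (chpK C₁ C₂), ?_, ?_, ?_⟩
  · intro x
    rw [Units.val_mul, ← Matrix.mulVec_mulVec]
    congr 1
    change ((C₁ : Matrix (Fin m) (Fin m) F) ⊗ₖ (C₂ : Matrix (Fin m) (Fin m) F)).submatrix e e *ᵥ (x ∘ e) = _
    rw [Matrix.submatrix_mulVec_equiv]
    simp [Function.comp_assoc]
  · unfold tensorWreathSubgroup
    apply chp_map_conj
    rw [chp_reindex]
    refine ⟨_, ?_, rfl⟩
    apply Subgroup.subset_closure
    left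
    refine ⟨![C₁, C₂], fun u v => ?_⟩
    rw [chp_pt, pt_apply, Fin.prod_univ_two, Fin.prod_univ_two]
    rfl
  · unfold tensorProductSubgroup
    apply chp_map_conj
    exact ⟨_, ⟨C₁, C₂, rfl⟩, rfl⟩

end Cfsg.Agent.Lib.Helper38.UGT
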