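import Cfsg.Agent.Lib.Helper38.UGT.Defs

set_option autoImplicit false

namespace Cfsg.Agent.Lib.Helper38.UGT

open Cfsg Cfsg.Geo Cfsg.Agent.Lib.Helper77.AschG
open scoped MatrixGroups Matrix Kronecker

variable {n : ℕ} {F : Type*} [Field F]

/-- the permutation matrix with `Π *ᵥ y = y ∘ ρ`. -/
def cj1Pi (ρ : Equiv.Perm (Fin n)) : Matrix (Fin n) (Fin n) F := fun i j => if j = ρ i then 1 else 0

theorem cj1_mul_apply (ρ : Equiv.Perm (Fin n)) (Y : Matrix (Fin n) (Fin n) F) (i j : Fin n) :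
    ((cj1Pi ρ : Matrix (Fin n) (Fin n) F) * Y) i j = Y (ρ i) j := by
  simp [cj1Pi, Matrix.mul_apply]

theorem cj1_apply_mul (ρ : Equiv.Perm (Fin n)) (Y : Matrix (Fin n) (Fin n) F) (i j : Fin n) :
    (Y * (cj1Pi ρ : Matrix (Fin n) (Fin n) F)) i j = Y i (ρ.symm j) := by
  have h : ∀ k, (j = ρ k) ↔ (k = ρ.symm j) := by
    intro k
    constructor
    · intro h; rw [h]; simp
    · intro h; rw [h]; simp
  simp [cj1Pi, Matrix.mul_apply, h]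

theorem cj1_mulVec (ρ : Equiv.Perm (Fin n)) (y : Fin n → F) :
    (cj1Pi ρ : Matrix (Fin n) (Fin n) F) *ᵥ y = y ∘ ρ := by
  ext i
  simp [cj1Pi, Matrix.mulVec, dotProduct]

theorem cj1_inv (ρ : Equiv.Perm (Fin n)) :
    (cj1Pi ρ : Matrix (Fin n) (Fin n) F) * cj1Pi ρ.symm = 1 := by
  ext i j
  rw [cj1_mul_apply]
  simp [cj1Pi, Matrix.one_apply, eq_comm]

/-- the permutation matrix as a unit. -/
def cj1G (ρ : Equiv.Perm (Fin n)) : GL (Fin n) F :=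
  ⟨cj1Pi ρ, cj1Pi ρ.symm, cj1_inv ρ, by simpa using cj1_inv (F := F) ρ.symm⟩

/-- CJ1. -/
theorem exists_conj [Fintype F] (q : ℕ) {m : ℕ} (e₁ e₂ : Fin n ≃ (Fin 2 → Fin m)) (P₁ P₂ : GL (Fin n) F)
    (h₁ : IsTensorPowerFormStructure (fun x : F => x ^ q) (hermForm n F q) (hermForm m F q) e₁ P₁)
    (h₂ : IsTensorPowerFormStructure (fun x : F => x ^ q) (hermForm n F q) (hermForm m F q) e₂ P₂) :
    ∃ g : GL (Fin n) F,
      (tensorWreathSubgroup m 2 e₁ P₁).map (MulAut.conj g).toMonoidHom = tensorWreathSubgroup m 2 e₂ P₂ ∧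
      ∃ c : F, c ≠ 0 ∧ ∀ u v : Fin n → F, hermForm n F q ((g : Matrix (Fin n) (Fin n) F) *ᵥ u)
        ((g : Matrix (Fin n) (Fin n) F) *ᵥ v) = c * hermForm n F q u v := by
  set ρ : Equiv.Perm (Fin n) := e₂.trans e₁.symm with hρ
  set π : GL (Fin n) F := cj1G ρ with hπ
  have hπv : (π : Matrix (Fin n) (Fin n) F) = cj1Pi ρ := rfl
  refine ⟨P₂ * π * P₁⁻¹, ?_, ?_⟩
  · have key : ∀ X : GL (Fin 2 → Fin m) F, π * glReindex e₁.symm X = glReindex e₂.symm X * π := by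
      intro X
      apply Units.ext
      ext i j
      rw [Units.val_mul, Units.val_mul, hπv, cj1_mul_apply, cj1_apply_mul]
      show (X : Matrix _ _ F) (e₁ (ρ i)) (e₁ j) = (X : Matrix _ _ F) (e₂ i) (e₂ (ρ.symm j))
      simp [hρ]
    unfold tensorWreathSubgroup
    rw [Subgroup.map_map, Subgroup.map_map, Subgroup.map_map]
    congr 1
    ext1 X
    show (P₂ * π * P₁⁻¹) * (P₁ * glReindex e₁.symm X * P₁⁻¹) * (P₂ * π * P₁⁻¹)⁻¹
      = P₂ * glReindex e₂.symm X * P₂⁻¹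
    have : (P₂ * π * P₁⁻¹) * (P₁ * glReindex e₁.symm X * P₁⁻¹) * (P₂ * π * P₁⁻¹)⁻¹
        = P₂ * (π * glReindex e₁.symm X) * π⁻¹ * P₂⁻¹ := by group
    rw [this, key]
    group
  · obtain ⟨c₁, hc₁, H₁⟩ := h₁
    obtain ⟨c₂, hc₂, H₂⟩ := h₂
    refine ⟨c₂ / c₁, div_ne_zero hc₂ hc₁, fun u v => ?_⟩
    have hrep : ∀ u : Fin n → F, ∃ x : (Fin 2 → Fin m) → F,
        u = (P₁ : Matrix (Fin n) (Fin n) F) *ᵥ (x ∘ e₁) ∧
        ((P₂ * π * P₁⁻¹ : GL (Fin n) F) : Matrix (Fin n) (Fin n) F) *ᵥ u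
          = (P₂ : Matrix (Fin n) (Fin n) F) *ᵥ (x ∘ e₂) := by
      intro u
      refine ⟨(((P₁⁻¹ : GL (Fin n) F) : Matrix (Fin n) (Fin n) F) *ᵥ u) ∘ e₁.symm, ?_, ?_⟩
      · have h0 : ((((P₁⁻¹ : GL (Fin n) F) : Matrix (Fin n) (Fin n) F) *ᵥ u) ∘ e₁.symm) ∘ e₁
            = ((P₁⁻¹ : GL (Fin n) F) : Matrix (Fin n) (Fin n) F) *ᵥ u := by
          ext i; simp
        rw [h0, Matrix.mulVec_mulVec, ← Units.val_mul, mul_inv_cancel, Units.val_one, Matrix.one_mulVec]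
      · rw [Units.val_mul, Units.val_mul, ← Matrix.mulVec_mulVec, ← Matrix.mulVec_mulVec, hπv, cj1_mulVec]
        congr 1
    obtain ⟨x, hx1, hx2⟩ := hrep u
    obtain ⟨y, hy1, hy2⟩ := hrep v
    rw [hx2, hy2, H₂]
    conv_rhs => rw [hx1, hy1, H₁]
    field_simp

end Cfsg.Agent.Lib.Helper38.UGT
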