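import Cfsg.Agent.Lib.Helper38.UGT.Defs
import Cfsg.Agent.Lib.Helper17.GU

set_option autoImplicit false

namespace Cfsg.Agent.Lib.Helper38.UGT

open Cfsg Cfsg.Geo Cfsg.Agent.Lib.Helper77.AschG
open scoped MatrixGroups Matrix Kronecker

variable {n : ℕ} {F : Type*} [Field F]

theorem cj2_iff (q : ℕ) (g : GL (Fin n) F) (c : F) (hc : c ≠ 0)
    (hg : ∀ u v : Fin n → F, hermForm n F q ((g : Matrix (Fin n) (Fin n) F) *ᵥ u)
        ((g : Matrix (Fin n) (Fin n) F) *ᵥ v) = c * hermForm n F q u v) (x : GL (Fin n) F) :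
    x ∈ GU n F q ↔ g * x * g⁻¹ ∈ GU n F q := by
  rw [Cfsg.Agent.Lib.Helper17.mem_GU_iff, Cfsg.Agent.Lib.Helper17.mem_GU_iff]
  constructor
  · intro hx u v
    have e : ∀ w : Fin n → F, ((g * x * g⁻¹ : GL (Fin n) F) : Matrix (Fin n) (Fin n) F) *ᵥ w
        = (g : Matrix (Fin n) (Fin n) F) *ᵥ ((x : Matrix (Fin n) (Fin n) F) *ᵥ
          (((g⁻¹ : GL (Fin n) F) : Matrix (Fin n) (Fin n) F) *ᵥ w)) := by
      intro w
      rw [Units.val_mul, Units.val_mul, ← Matrix.mulVec_mulVec, ← Matrix.mulVec_mulVec]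
    have e2 : ∀ w : Fin n → F, (g : Matrix (Fin n) (Fin n) F) *ᵥ
        (((g⁻¹ : GL (Fin n) F) : Matrix (Fin n) (Fin n) F) *ᵥ w) = w := by
      intro w
      rw [Matrix.mulVec_mulVec, ← Units.val_mul, mul_inv_cancel, Units.val_one, Matrix.one_mulVec]
    rw [e, e, hg, hx]
    conv_rhs => rw [← e2 u, ← e2 v, hg]
  · intro hx u v
    have h1 := hx ((g : Matrix (Fin n) (Fin n) F) *ᵥ u) ((g : Matrix (Fin n) (Fin n) F) *ᵥ v)
    have e : ∀ w : Fin n → F, ((g * x * g⁻¹ : GL (Fin n) F) : Matrix (Fin n) (Fin n) F) *ᵥ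
        ((g : Matrix (Fin n) (Fin n) F) *ᵥ w)
        = (g : Matrix (Fin n) (Fin n) F) *ᵥ ((x : Matrix (Fin n) (Fin n) F) *ᵥ w) := by
      intro w
      rw [Matrix.mulVec_mulVec, ← Units.val_mul, inv_mul_cancel_right, Units.val_mul,
        ← Matrix.mulVec_mulVec]
    rw [e, e, hg, hg] at h1
    exact mul_left_cancel₀ hc h1

/-- CJ2. -/
theorem card_inf_GU_eq [Fintype F] (q : ℕ) (W₁ W₂ : Subgroup (GL (Fin n) F)) (g : GL (Fin n) F)
    (hW : W₁.map (MulAut.conj g).toMonoidHom = W₂) (c : F) (hc : c ≠ 0)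
    (hg : ∀ u v : Fin n → F, hermForm n F q ((g : Matrix (Fin n) (Fin n) F) *ᵥ u)
        ((g : Matrix (Fin n) (Fin n) F) *ᵥ v) = c * hermForm n F q u v) :
    Nat.card ↥(W₁ ⊓ GU n F q) = Nat.card ↥(W₂ ⊓ GU n F q) := by
  have hinj : Function.Injective (MulAut.conj g).toMonoidHom := (MulAut.conj g).injective
  have hmap : (W₁ ⊓ GU n F q).map (MulAut.conj g).toMonoidHom = W₂ ⊓ GU n F q := by
    ext y
    constructor
    · rintro ⟨x, ⟨hx1, hx2⟩, rfl⟩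
      refine ⟨hW ▸ ⟨x, hx1, rfl⟩, ?_⟩
      exact (cj2_iff q g c hc hg x).1 hx2
    · rintro ⟨hy1, hy2⟩
      rw [← hW] at hy1
      obtain ⟨x, hx1, rfl⟩ := hy1
      exact ⟨x, ⟨hx1, (cj2_iff q g c hc hg x).2 hy2⟩, rfl⟩
  rw [← hmap]
  exact Nat.card_congr ((W₁ ⊓ GU n F q).equivMapOfInjective _ hinj).toEquiv

end Cfsg.Agent.Lib.Helper38.UGT
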