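import Cfsg.Agent.Lib.Helper47.UC.Defs
import Cfsg.Agent.Lib.Helper77.AschG.DefsB

/-! Ladder UGT (block "tensor product with equal factors" of S5663): definitions. -/

set_option autoImplicit false

namespace Cfsg.Agent.Lib.Helper38.UGT

open Cfsg Cfsg.Geo
open scoped MatrixGroups Matrix Kronecker

variable {n : ℕ} {F : Type*} [Field F]

/-- from the index set `Fin m × Fin m` of a tensor product to the index set `Fin 2 → Fin m` of a tensor square. -/
abbrev eW {m : ℕ} (e : Fin n ≃ Fin m × Fin m) : Fin n ≃ (Fin 2 → Fin m) :=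
  e.trans (finTwoArrowEquiv (Fin m)).symm

end Cfsg.Agent.Lib.Helper38.UGT
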