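import Cfsg.Agent.Lib.Helper38.UGT.Defs
import Cfsg.Agent.Lib.Helper59.ASU9.TWS

/-! Ladder UGT, rung NR2 (helper73). -/

set_option autoImplicit false

namespace Cfsg.Agent.Lib.Helper38.UGT

open Cfsg Cfsg.Geo Cfsg.Agent.Lib.Helper77.AschG
open scoped MatrixGroups Matrix Kronecker

variable {n : ℕ} {F : Type*} [Field F]

theorem nr2_single {m : ℕ} (j j' : Fin m) :
    Cfsg.Agent.Lib.Helper59.ASU9.twsT (Pi.single j (1 : F)) (Pi.single j' (1 : F)) =
      Pi.single (![j, j'] : Fin 2 → Fin m) (1 : F) := by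
  funext z
  unfold Cfsg.Agent.Lib.Helper59.ASU9.twsT
  by_cases h0 : z 0 = j
  · by_cases h1 : z 1 = j'
    · have hz : z = ![j, j'] := by
        funext i
        fin_cases i
        · simpa using h0
        · simpa using h1
      subst hz
      simp
    · have hz : z ≠ ![j, j'] := by
        intro h
        apply h1
        rw [h]
        rfl
      rw [Pi.single_eq_of_ne hz, Pi.single_eq_of_ne h1, mul_zero]
  · have hz : z ≠ ![j, j'] := by
      intro h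
      apply h0
      rw [h]
      rfl
    rw [Pi.single_eq_of_ne hz, Pi.single_eq_of_ne h0, zero_mul]

theorem nr2_A {m : ℕ} (e : Fin n ≃ Fin m × Fin m) (P : GL (Fin n) F) (x₀ : GL (Fin 2 → Fin m) F)
    (h : Cfsg.Agent.Lib.Helper59.ASU9.TwsA x₀) :
    (MulAut.conj P).toMonoidHom ((glReindex (eW e).symm).toMonoidHom x₀) ∈ tensorProductSubgroup m m e P := by
  obtain ⟨a, b, hab⟩ := h
  refine ⟨_, ⟨glReindex (finTwoArrowEquiv (Fin m)) x₀, ⟨a, b, ?_⟩, rfl⟩, ?_⟩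
  · ext ⟨i, i'⟩ ⟨j, j'⟩
    have h1 := congrFun (hab (Pi.single j 1) (Pi.single j' 1)) ![i, i']
    rw [nr2_single, Matrix.mulVec_single_one] at h1
    unfold Cfsg.Agent.Lib.Helper59.ASU9.twsT at h1
    rw [Matrix.mulVec_single_one, Matrix.mulVec_single_one] at h1
    simp only [Matrix.col_apply, Matrix.cons_val_zero, Matrix.cons_val_one] at h1
    rw [Matrix.kroneckerMap_apply]
    rw [← h1]
    rfl
  · congr 1

/-- NR2. -/
theorem mul_mem_tensorProduct {m : ℕ} (e : Fin n ≃ Fin m × Fin m) (P : GL (Fin n) F) (x y : GL (Fin n) F)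
    (hx : x ∈ tensorWreathSubgroup m 2 (eW e) P) (hy : y ∈ tensorWreathSubgroup m 2 (eW e) P)
    (hx' : x ∉ tensorProductSubgroup m m e P) (hy' : y ∉ tensorProductSubgroup m m e P) :
    x * y ∈ tensorProductSubgroup m m e P := by
  obtain ⟨x1, ⟨x0, hx0, rfl⟩, rfl⟩ := hx
  obtain ⟨y1, ⟨y0, hy0, rfl⟩, rfl⟩ := hy
  rcases Cfsg.Agent.Lib.Helper59.ASU9.tws_aux x0 hx0 with hxa | ⟨a, b, hab⟩
  · exact absurd (nr2_A e P x0 hxa) hx'
  rcases Cfsg.Agent.Lib.Helper59.ASU9.tws_aux y0 hy0 with hya | ⟨c, d, hcd⟩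
  · exact absurd (nr2_A e P y0 hya) hy'
  rw [← map_mul, ← map_mul]
  apply nr2_A
  refine ⟨a * d, b * c, fun u w => ?_⟩
  rw [Cfsg.Agent.Lib.Helper59.ASU9.tws_mul_mulVec, hcd, hab, Cfsg.Agent.Lib.Helper59.ASU9.tws_mul_mulVec,
    Cfsg.Agent.Lib.Helper59.ASU9.tws_mul_mulVec]

end Cfsg.Agent.Lib.Helper38.UGT
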