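import Cfsg.Agent.Lib.Helper38.UGT.Defs
import Cfsg.Agent.Lib.Helper59.ASU9.QSOL
import Cfsg.Agent.Lib.Helper59.ASU9.HUF
import Cfsg.Agent.Lib.Helper54.UT.PTM
import Cfsg.Agent.Lib.Helper62.UGT.T2W

/-! Ladder UGT, rung NR3 (helper62). -/

set_option autoImplicit false

namespace Cfsg.Agent.Lib.Helper38.UGT

open Cfsg Cfsg.Geo Cfsg.Agent.Lib.Helper77.AschG
open scoped MatrixGroups Matrix Kronecker

variable {n : ℕ} {F : Type*} [Field F]

theorem nr3_form [Fintype F] (q : ℕ) (hF : Fintype.card F = q ^ 2) {m : ℕ} (e' : Fin n ≃ (Fin 2 → Fin m))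
    (P' : GL (Fin n) F) (c : F)
    (h : ∀ x y : (Fin 2 → Fin m) → F, hermForm n F q ((P' : Matrix (Fin n) (Fin n) F) *ᵥ (x ∘ e'))
      ((P' : Matrix (Fin n) (Fin n) F) *ᵥ (y ∘ e')) =
      c * ∑ a, ∑ b, x a * (∏ i, gramMatrix (hermForm m F q) (a i) (b i)) * (fun x : F => x ^ q) (y b))
    (x y : (Fin 2 → Fin m) → F) :
    hermForm n F q ((P' : Matrix (Fin n) (Fin n) F) *ᵥ (x ∘ e')) ((P' : Matrix (Fin n) (Fin n) F) *ᵥ (y ∘ e')) =
      c * (x ⬝ᵥ (fun z => (y z) ^ q)) := by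
  rw [h, (Cfsg.Agent.Lib.Helper59.ASU9.hermForm_unitaryPow q hF m).2]
  congr 1
  unfold dotProduct
  refine Finset.sum_congr rfl fun a _ => ?_
  have h1 : ∀ b : Fin 2 → Fin m, (∏ i, (1 : Matrix (Fin m) (Fin m) F) (a i) (b i)) =
      (1 : Matrix (Fin 2 → Fin m) (Fin 2 → Fin m) F) a b := by
    intro b
    rw [← pt_one (k := 2) (a := m), pt_apply]
  calc ∑ b, x a * (∏ i, (1 : Matrix (Fin m) (Fin m) F) (a i) (b i)) * (fun x : F => x ^ q) (y b)
      = ∑ b, x a * ((1 : Matrix (Fin 2 → Fin m) (Fin 2 → Fin m) F) a b) * (y b) ^ q :=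
        Finset.sum_congr rfl (fun b _ => by rw [h1 b])
    _ = x a * (y a) ^ q := by simp [Matrix.one_apply]

theorem nr3_dot [Fintype F] (q : ℕ) (hF : Fintype.card F = q ^ 2) {κ : Type*} [Fintype κ] (M : Matrix κ κ F)
    (x y : κ → F) :
    (M *ᵥ x) ⬝ᵥ (fun z => ((M *ᵥ y) z) ^ q) = x ⬝ᵥ ((Mᵀ * M.map (· ^ q)) *ᵥ (fun z => (y z) ^ q)) := by
  have h1 : (fun z => ((M *ᵥ y) z) ^ q) = M.map (· ^ q) *ᵥ (fun z => (y z) ^ q) := by
    funext z
    simp only [Matrix.mulVec, dotProduct, Matrix.map_apply]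
    rw [Cfsg.Agent.Lib.Helper17.sum_pow_q hF]
    exact Finset.sum_congr rfl fun i _ => mul_pow _ _ _
  rw [h1, ← Matrix.mulVec_mulVec, Matrix.dotProduct_mulVec x Mᵀ, Matrix.vecMul_transpose]

theorem nr3_ext (q : ℕ) (hq0 : q ≠ 0) {κ : Type*} [Fintype κ] [DecidableEq κ] (N N' : Matrix κ κ F)
    (h : ∀ x y : κ → F, x ⬝ᵥ (N *ᵥ (fun z => (y z) ^ q)) = x ⬝ᵥ (N' *ᵥ (fun z => (y z) ^ q))) : N = N' := by
  ext a b
  have := h (Pi.single a 1) (Pi.single b 1)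
  have hs : (fun z => ((Pi.single b 1 : κ → F) z) ^ q) = Pi.single b 1 := by
    funext z
    by_cases hz : z = b
    · subst hz
      simp
    · simp [Pi.single_apply, hz, hq0]
  rw [hs] at this
  simpa using this

theorem exists_slot_factors [Fintype F] (q : ℕ) (hF : Fintype.card F = q ^ 2) {m : ℕ} (hm : 0 < m) (e : Fin n ≃ Fin m × Fin m)
    (P' : GL (Fin n) F)
    (hT : IsTensorPowerFormStructure (fun x : F => x ^ q) (hermForm n F q) (hermForm m F q) (eW e) P')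
    (g : GL (Fin n) F) (hg : g ∈ tensorProductSubgroup m m e P') (hs : g ∈ similarityGroup (hermForm n F q)) :
    ∃ g₀ g₁ : GL (Fin n) F, g = g₀ * g₁ ∧ g₀ ∈ similarityGroup (hermForm n F q) ∧
      g₁ ∈ similarityGroup (hermForm n F q) ∧
      (∃ a : Matrix (Fin m) (Fin m) F, (g₀ : Matrix (Fin n) (Fin n) F) = tw (eW e) P' (slot 0 a)) ∧
      (∃ b : Matrix (Fin m) (Fin m) F, (g₁ : Matrix (Fin n) (Fin n) F) = tw (eW e) P' (slot 1 b)) := by
  have hq : 2 ≤ q := Cfsg.Agent.Lib.Helper17.two_le_of_card_sq hF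
  have hq0 : q ≠ 0 := by omega
  obtain ⟨c, hc, hform⟩ := hT
  have hS := nr3_form q hF (eW e) P' c hform
  obtain ⟨g1, ⟨k, ⟨a, b, hk⟩, hg1⟩, hgg⟩ := hg
  have hkk : k = Cfsg.Agent.Lib.Helper62.UGT.t2wgK a b := Units.ext hk
  have hgm : (g : Matrix (Fin n) (Fin n) F) =
      tw (eW e) P' (pt ![(a : Matrix (Fin m) (Fin m) F), (b : Matrix (Fin m) (Fin m) F)]) := by
    rw [← hgg, ← hg1, hkk]
    change ((P' * glReindex e.symm (Cfsg.Agent.Lib.Helper62.UGT.t2wgK a b) * P'⁻¹ : GL (Fin n) F) :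
      Matrix (Fin n) (Fin n) F) = _
    rw [Cfsg.Agent.Lib.Helper62.UGT.t2wg_reindex, Units.val_mul, Units.val_mul]
    unfold tw
    rw [← Cfsg.Agent.Lib.Helper62.UGT.t2wg_pt]
    rfl
  have hrep : ∀ u : Fin n → F, ∃ x : (Fin 2 → Fin m) → F, u = (P' : Matrix (Fin n) (Fin n) F) *ᵥ (x ∘ eW e) := by
    intro u
    refine ⟨(((P'⁻¹ : GL (Fin n) F) : Matrix (Fin n) (Fin n) F) *ᵥ u) ∘ (eW e).symm, ?_⟩
    rw [Function.comp_assoc, Equiv.symm_comp_self, Function.comp_id, Matrix.mulVec_mulVec, ← Units.val_mul,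
      mul_inv_cancel, Units.val_one, Matrix.one_mulVec]
  have hA : ∀ (M : Matrix (Fin 2 → Fin m) (Fin 2 → Fin m) F) (l : F),
      (∀ u v, hermForm n F q (tw (eW e) P' M *ᵥ u) (tw (eW e) P' M *ᵥ v) = l * hermForm n F q u v) →
      Mᵀ * M.map (· ^ q) = l • 1 := by
    intro M l h
    apply nr3_ext q hq0
    intro x y
    have := h ((P' : Matrix (Fin n) (Fin n) F) *ᵥ (x ∘ eW e)) ((P' : Matrix (Fin n) (Fin n) F) *ᵥ (y ∘ eW e))
    rw [Cfsg.Agent.Lib.Helper59.ASU9.qsol_tw_mulVec, Cfsg.Agent.Lib.Helper59.ASU9.qsol_tw_mulVec, hS, hS,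
      nr3_dot q hF] at this
    rw [Matrix.smul_mulVec, Matrix.one_mulVec, dotProduct_smul, smul_eq_mul]
    apply mul_left_cancel₀ hc
    rw [this]
    ring
  have hB : ∀ (M : Matrix (Fin 2 → Fin m) (Fin 2 → Fin m) F) (l : F), Mᵀ * M.map (· ^ q) = l • 1 →
      (∀ u v, hermForm n F q (tw (eW e) P' M *ᵥ u) (tw (eW e) P' M *ᵥ v) = l * hermForm n F q u v) := by
    intro M l h u v
    obtain ⟨x, rfl⟩ := hrep u
    obtain ⟨y, rfl⟩ := hrep v
    rw [Cfsg.Agent.Lib.Helper59.ASU9.qsol_tw_mulVec, Cfsg.Agent.Lib.Helper59.ASU9.qsol_tw_mulVec, hS, hS,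
      nr3_dot q hF, h, Matrix.smul_mulVec, Matrix.one_mulVec, dotProduct_smul, smul_eq_mul]
    ring
  obtain ⟨l, hl⟩ := hs
  rw [hgm] at hl
  have hpt := hA _ _ hl
  rw [pt_transpose, Cfsg.Agent.Lib.Helper54.UT.pt_map_pow, pt_mul] at hpt
  set A : Matrix (Fin m) (Fin m) F := (a : Matrix (Fin m) (Fin m) F)ᵀ * (a : Matrix (Fin m) (Fin m) F).map (· ^ q) with hAdef
  set B : Matrix (Fin m) (Fin m) F := (b : Matrix (Fin m) (Fin m) F)ᵀ * (b : Matrix (Fin m) (Fin m) F).map (· ^ q) with hBdef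
  have hent : ∀ i i' j j', A i i' * B j j' =
      (l : F) * (1 : Matrix (Fin 2 → Fin m) (Fin 2 → Fin m) F) ![i, j] ![i', j'] := by
    intro i i' j j'
    have := congrFun (congrFun hpt ![i, j]) ![i', j']
    rw [pt_apply, Fin.prod_univ_two] at this
    simpa using this
  set z0 : Fin m := ⟨0, hm⟩ with hz0
  have ht : B z0 z0 ≠ 0 := by
    intro h0
    have := hent z0 z0 z0 z0
    rw [h0, mul_zero, Matrix.one_apply_eq, mul_one] at this
    exact l.ne_zero this.symm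
  have hAeq : A = ((l : F) / B z0 z0) • 1 := by
    ext i i'
    have := hent i i' z0 z0
    rw [Matrix.smul_apply, smul_eq_mul]
    by_cases hi : i = i'
    · subst hi
      rw [Matrix.one_apply_eq, mul_one] at this
      rw [Matrix.one_apply_eq, mul_one, eq_div_iff ht, this]
    · have hne : (![i, z0] : Fin 2 → Fin m) ≠ ![i', z0] := by
        intro h
        exact hi (congrFun h 0)
      rw [Matrix.one_apply_ne hne, mul_zero] at this
      rw [Matrix.one_apply_ne hi, mul_zero]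
      exact (mul_eq_zero.1 this).resolve_right ht
  have hM0 : (slot (k := 2) 0 (a : Matrix (Fin m) (Fin m) F))ᵀ * (slot (k := 2) 0 (a : Matrix (Fin m) (Fin m) F)).map (· ^ q) =
      ((l : F) / B z0 z0) • 1 := by
    have h1 : (slot (k := 2) 0 (a : Matrix (Fin m) (Fin m) F))ᵀ * (slot (k := 2) 0 (a : Matrix (Fin m) (Fin m) F)).map (· ^ q)
        = slot 0 A := by
      unfold slot
      rw [pt_transpose, Cfsg.Agent.Lib.Helper54.UT.pt_map_pow, pt_mul]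
      congr 1
      funext i
      by_cases hi : i = 0
      · subst hi
        simp [hAdef]
      · simp only [Function.update_of_ne hi]
        rw [Matrix.transpose_one, Matrix.map_one (fun x : F => x ^ q) (zero_pow hq0) (one_pow q), one_mul]
    rw [h1, hAeq, slot_smul, slot_one]
  have haa : (a : Matrix (Fin m) (Fin m) F) * ((a⁻¹ : GL (Fin m) F) : Matrix (Fin m) (Fin m) F) = 1 := by
    rw [← Units.val_mul, mul_inv_cancel, Units.val_one]
  have haa' : ((a⁻¹ : GL (Fin m) F) : Matrix (Fin m) (Fin m) F) * (a : Matrix (Fin m) (Fin m) F) = 1 := by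
    rw [← Units.val_mul, inv_mul_cancel, Units.val_one]
  have hbb : (b : Matrix (Fin m) (Fin m) F) * ((b⁻¹ : GL (Fin m) F) : Matrix (Fin m) (Fin m) F) = 1 := by
    rw [← Units.val_mul, mul_inv_cancel, Units.val_one]
  have hbb' : ((b⁻¹ : GL (Fin m) F) : Matrix (Fin m) (Fin m) F) * (b : Matrix (Fin m) (Fin m) F) = 1 := by
    rw [← Units.val_mul, inv_mul_cancel, Units.val_one]
  let g₀ : GL (Fin n) F := ⟨tw (eW e) P' (slot 0 (a : Matrix (Fin m) (Fin m) F)),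
    tw (eW e) P' (slot 0 ((a⁻¹ : GL (Fin m) F) : Matrix (Fin m) (Fin m) F)),
    by rw [Cfsg.Agent.Lib.Helper59.ASU9.qsol_tw_mul, slot_mul, haa, slot_one,
      Cfsg.Agent.Lib.Helper59.ASU9.qsol_tw_one],
    by rw [Cfsg.Agent.Lib.Helper59.ASU9.qsol_tw_mul, slot_mul, haa', slot_one,
      Cfsg.Agent.Lib.Helper59.ASU9.qsol_tw_one]⟩
  let g₁ : GL (Fin n) F := ⟨tw (eW e) P' (slot 1 (b : Matrix (Fin m) (Fin m) F)),
    tw (eW e) P' (slot 1 ((b⁻¹ : GL (Fin m) F) : Matrix (Fin m) (Fin m) F)),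
    by rw [Cfsg.Agent.Lib.Helper59.ASU9.qsol_tw_mul, slot_mul, hbb, slot_one,
      Cfsg.Agent.Lib.Helper59.ASU9.qsol_tw_one],
    by rw [Cfsg.Agent.Lib.Helper59.ASU9.qsol_tw_mul, slot_mul, hbb', slot_one,
      Cfsg.Agent.Lib.Helper59.ASU9.qsol_tw_one]⟩
  have hprod : g = g₀ * g₁ := by
    apply Units.ext
    rw [hgm]
    change _ = tw (eW e) P' (slot 0 (a : Matrix (Fin m) (Fin m) F)) * tw (eW e) P' (slot 1 (b : Matrix (Fin m) (Fin m) F))
    rw [Cfsg.Agent.Lib.Helper59.ASU9.qsol_tw_mul]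
    congr 1
    unfold slot
    rw [pt_mul]
    congr 1
    funext i
    fin_cases i <;> simp
  have h0 : g₀ ∈ similarityGroup (hermForm n F q) :=
    ⟨Units.mk0 _ (div_ne_zero l.ne_zero ht), hB _ _ hM0⟩
  have hgs : g ∈ similarityGroup (hermForm n F q) := ⟨l, by rw [hgm]; exact hl⟩
  refine ⟨g₀, g₁, hprod, h0, ?_, ⟨_, rfl⟩, ⟨_, rfl⟩⟩
  have : g₁ = g₀⁻¹ * g := by rw [hprod, inv_mul_cancel_left]
  rw [this]
  exact Subgroup.mul_mem _ (Subgroup.inv_mem _ h0) hgs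

end Cfsg.Agent.Lib.Helper38.UGT
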