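import Cfsg.Agent.Lib.Helper38.UGT.Defs
import Cfsg.Agent.Lib.Helper59.ASU9.QSOL
import Cfsg.Agent.Lib.Helper77.AschG.PT

set_option autoImplicit false

namespace Cfsg.Agent.Lib.Helper38.UGT

open Cfsg Cfsg.Geo Cfsg.Agent.Lib.Helper77.AschG
open scoped MatrixGroups Matrix Kronecker

variable {n : ℕ} {F : Type*} [Field F]

theorem nr4_slot_comm {m : ℕ} (a b : Matrix (Fin m) (Fin m) F) :
    slot (k := 2) 0 a * slot 1 b = slot 1 b * slot 0 a := by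
  unfold slot
  rw [pt_mul, pt_mul]
  congr 1
  funext j
  fin_cases j <;> simp

/-- NR4. -/
theorem slot_units_commute {m : ℕ} (e' : Fin n ≃ (Fin 2 → Fin m)) (P' : GL (Fin n) F) (g₀ g₁ : GL (Fin n) F)
    (a b : Matrix (Fin m) (Fin m) F) (h0 : (g₀ : Matrix (Fin n) (Fin n) F) = tw e' P' (slot 0 a))
    (h1 : (g₁ : Matrix (Fin n) (Fin n) F) = tw e' P' (slot 1 b)) : g₀ * g₁ = g₁ * g₀ := by
  apply Units.ext
  rw [Units.val_mul, Units.val_mul, h0, h1, Cfsg.Agent.Lib.Helper59.ASU9.qsol_tw_mul,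
    Cfsg.Agent.Lib.Helper59.ASU9.qsol_tw_mul, nr4_slot_comm]

end Cfsg.Agent.Lib.Helper38.UGT
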