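import Cfsg.Agent.Lib.Helper38.UGT.Defs
import Cfsg.Agent.Lib.Helper59.ASU9.QSOL
import Cfsg.Agent.Lib.Helper77.AschG.PT

set_option autoImplicit false

namespace Cfsg.Agent.Lib.Helper38.UGT

open Cfsg Cfsg.Geo Cfsg.Agent.Lib.Helper77.AschG
open scoped MatrixGroups Matrix Kronecker

variable {n : ℕ} {F : Type*} [Field F]

theorem nr5_pow {m : ℕ} (e' : Fin n ≃ (Fin 2 → Fin m)) (P' : GL (Fin n) F) (i : Fin 2)
    (g : GL (Fin n) F) (x : Matrix (Fin m) (Fin m) F)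
    (h : (g : Matrix (Fin n) (Fin n) F) = tw e' P' (slot i x)) (k : ℕ) :
    ((g ^ k : GL (Fin n) F) : Matrix (Fin n) (Fin n) F) = tw e' P' (slot i (x ^ k)) := by
  induction k with
  | zero =>
    rw [pow_zero, pow_zero, Units.val_one, slot_one, Cfsg.Agent.Lib.Helper59.ASU9.qsol_tw_one]
  | succ k ih =>
    rw [pow_succ, pow_succ, Units.val_mul, ih, h, Cfsg.Agent.Lib.Helper59.ASU9.qsol_tw_mul, slot_mul]

/-- NR5. -/
theorem exists_slot_subgroup [Fintype F] (q : ℕ) {m : ℕ} (e' : Fin n ≃ (Fin 2 → Fin m)) (P' : GL (Fin n) F) (i : Fin 2) :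
    ∃ Q : Subgroup (GL (Fin n) F), ∀ g : GL (Fin n) F, g ∈ Q ↔ (g ∈ similarityGroup (hermForm n F q) ∧
      ∃ x : Matrix (Fin m) (Fin m) F, (g : Matrix (Fin n) (Fin n) F) = tw e' P' (slot i x)) := by
  refine ⟨{ carrier := {g | g ∈ similarityGroup (hermForm n F q) ∧
              ∃ x : Matrix (Fin m) (Fin m) F, (g : Matrix (Fin n) (Fin n) F) = tw e' P' (slot i x)}
            mul_mem' := ?_
            one_mem' := ?_
            inv_mem' := ?_ }, fun g => Iff.rfl⟩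
  · rintro a b ⟨ha, x, hx⟩ ⟨hb, y, hy⟩
    refine ⟨mul_mem ha hb, x * y, ?_⟩
    rw [Units.val_mul, hx, hy, Cfsg.Agent.Lib.Helper59.ASU9.qsol_tw_mul, slot_mul]
  · refine ⟨one_mem _, 1, ?_⟩
    rw [Units.val_one, slot_one, Cfsg.Agent.Lib.Helper59.ASU9.qsol_tw_one]
  · rintro a ⟨ha, x, hx⟩
    refine ⟨inv_mem ha, x ^ (orderOf a - 1), ?_⟩
    have h1 : a⁻¹ = a ^ (orderOf a - 1) := by
      apply inv_eq_of_mul_eq_one_right
      rw [← pow_succ', Nat.sub_add_cancel (orderOf_pos a), pow_orderOf_eq_one]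
    rw [h1]
    exact nr5_pow e' P' i a x hx _

end Cfsg.Agent.Lib.Helper38.UGT
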