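import Cfsg.Agent.Lib.Helper38.UGT.Defs
import Cfsg.Agent.Lib.Helper59.ASU9.Defs
import Cfsg.Agent.Lib.Helper77.AschG.FPC

set_option autoImplicit false

namespace Cfsg.Agent.Lib.Helper38.UGT

open Cfsg Cfsg.Geo Cfsg.Agent.Lib.Helper77.Asch Cfsg.Agent.Lib.Helper77.AschG Cfsg.Agent.Lib.Helper32.AschU
  Cfsg.Agent.Lib.Helper80.AS Cfsg.Agent.Lib.Helper47.UC
open scoped MatrixGroups Matrix Kronecker

variable {n : ℕ} {F : Type*} [Field F]

theorem swg_fp_mulVec {m : ℕ} (σ : Equiv.Perm (Fin 2)) (x : (Fin 2 → Fin m) → F) :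
    (fp σ : Matrix (Fin 2 → Fin m) (Fin 2 → Fin m) F) *ᵥ x = fun u => x (u ∘ σ) := by
  funext u
  simp only [Matrix.mulVec, dotProduct, fp]
  rw [Finset.sum_eq_single (u ∘ σ)]
  · simp
  · intro w _ hw
    rw [if_neg hw, zero_mul]
  · intro h
    exact absurd (Finset.mem_univ _) h

/-- invariance of the tensor power form under the swap of the two factors. -/
theorem swg_sum {m : ℕ} (G : Matrix (Fin m) (Fin m) F) (τ : F → F) (x y : (Fin 2 → Fin m) → F) :
    ∑ a : Fin 2 → Fin m, ∑ b : Fin 2 → Fin m, x (a ∘ (Equiv.swap (0 : Fin 2) 1)) * (∏ i, G (a i) (b i)) *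
        τ (y (b ∘ (Equiv.swap (0 : Fin 2) 1)))
      = ∑ a : Fin 2 → Fin m, ∑ b : Fin 2 → Fin m, x a * (∏ i, G (a i) (b i)) * τ (y b) := by
  let E : (Fin 2 → Fin m) ≃ (Fin 2 → Fin m) :=
    Equiv.arrowCongr (Equiv.swap (0 : Fin 2) 1) (Equiv.refl _)
  have hE : ∀ a : Fin 2 → Fin m, E a = a ∘ (Equiv.swap (0 : Fin 2) 1) := by
    intro a
    funext i
    simp [E, Equiv.arrowCongr]
  rw [← Equiv.sum_comp E (fun a => ∑ b : Fin 2 → Fin m, x a * (∏ i, G (a i) (b i)) * τ (y b))]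
  apply Finset.sum_congr rfl
  intro a _
  rw [← Equiv.sum_comp E (fun b => x (E a) * (∏ i, G ((E a) i) (b i)) * τ (y b))]
  apply Finset.sum_congr rfl
  intro b _
  rw [hE, hE]
  congr 2
  exact (Equiv.prod_comp (Equiv.swap (0 : Fin 2) 1) (fun i => G (a i) (b i))).symm

/-- SWG. -/
theorem exists_swap [Fintype F] (q : ℕ) (hF : Fintype.card F = q ^ 2) {m : ℕ} (hm : 2 ≤ m) (e : Fin n ≃ Fin m × Fin m)
    (P' : GL (Fin n) F)
    (hT : IsTensorPowerFormStructure (fun x : F => x ^ q) (hermForm n F q) (hermForm m F q) (eW e) P') :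
    ∃ s : GL (Fin n) F, s ∈ tensorWreathSubgroup m 2 (eW e) P' ∧ s ∈ GU n F q ∧
      s ∉ tensorProductSubgroup m m e P' := by
  classical
  obtain ⟨c, hc, hT⟩ := hT
  have hσσ : (Equiv.swap (0 : Fin 2) 1) * (Equiv.swap (0 : Fin 2) 1) = 1 := Equiv.swap_mul_self 0 1
  have hfp : (fp (Equiv.swap (0 : Fin 2) 1) : Matrix (Fin 2 → Fin m) (Fin 2 → Fin m) F)
      * fp (Equiv.swap (0 : Fin 2) 1) = 1 := by
    rw [fp_mul, hσσ, fp_one]
  let π : GL (Fin 2 → Fin m) F :=
    ⟨fp (Equiv.swap (0 : Fin 2) 1), fp (Equiv.swap (0 : Fin 2) 1), hfp, hfp⟩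
  have hR : ((glReindex (eW e).symm π : GL (Fin n) F) : Matrix (Fin n) (Fin n) F)
      = (fp (Equiv.swap (0 : Fin 2) 1) : Matrix (Fin 2 → Fin m) (Fin 2 → Fin m) F).submatrix
          (eW e) (eW e) := rfl
  have hPP : ((P'⁻¹ : GL (Fin n) F) : Matrix (Fin n) (Fin n) F) * (P' : Matrix (Fin n) (Fin n) F) = 1 := by
    rw [← Units.val_mul, inv_mul_cancel, Units.val_one]
  have hPP' : (P' : Matrix (Fin n) (Fin n) F) * ((P'⁻¹ : GL (Fin n) F) : Matrix (Fin n) (Fin n) F) = 1 := by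
    rw [← Units.val_mul, mul_inv_cancel, Units.val_one]
  have hact : ∀ x : (Fin 2 → Fin m) → F,
      ((P' * glReindex (eW e).symm π * P'⁻¹ : GL (Fin n) F) : Matrix (Fin n) (Fin n) F) *ᵥ
        ((P' : Matrix (Fin n) (Fin n) F) *ᵥ (x ∘ eW e))
      = (P' : Matrix (Fin n) (Fin n) F) *ᵥ ((fun u => x (u ∘ (Equiv.swap (0 : Fin 2) 1))) ∘ eW e) := by
    intro x
    rw [Units.val_mul, Units.val_mul, Matrix.mulVec_mulVec, Matrix.mul_assoc, hPP, Matrix.mul_one,
      ← Matrix.mulVec_mulVec, hR, Matrix.submatrix_mulVec_equiv]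
    congr 2
    rw [← swg_fp_mulVec]
    congr 1
    funext u
    exact congrArg x ((eW e).apply_symm_apply u)
  have hrep : ∀ u : Fin n → F, ∃ x : (Fin 2 → Fin m) → F,
      u = (P' : Matrix (Fin n) (Fin n) F) *ᵥ (x ∘ eW e) := by
    intro u
    refine ⟨(((P'⁻¹ : GL (Fin n) F) : Matrix (Fin n) (Fin n) F) *ᵥ u) ∘ (eW e).symm, ?_⟩
    have : ((((P'⁻¹ : GL (Fin n) F) : Matrix (Fin n) (Fin n) F) *ᵥ u) ∘ (eW e).symm) ∘ eW e
        = ((P'⁻¹ : GL (Fin n) F) : Matrix (Fin n) (Fin n) F) *ᵥ u := by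
      funext r
      simp
    rw [this, Matrix.mulVec_mulVec, hPP', Matrix.one_mulVec]
  refine ⟨P' * glReindex (eW e).symm π * P'⁻¹, ?_, ?_, ?_⟩
  · exact ⟨glReindex (eW e).symm π,
      ⟨π, Subgroup.subset_closure (Or.inr ⟨Equiv.swap (0 : Fin 2) 1, fun x y => rfl⟩), rfl⟩, rfl⟩
  · intro u v
    change hermForm n F q
      (((P' * glReindex (eW e).symm π * P'⁻¹ : GL (Fin n) F) : Matrix (Fin n) (Fin n) F) *ᵥ u)
      (((P' * glReindex (eW e).symm π * P'⁻¹ : GL (Fin n) F) : Matrix (Fin n) (Fin n) F) *ᵥ v)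
      = hermForm n F q u v
    obtain ⟨x, rfl⟩ := hrep u
    obtain ⟨y, rfl⟩ := hrep v
    rw [hact, hact, hT, hT]
    congr 1
    exact swg_sum _ (fun x : F => x ^ q) x y
  · rintro ⟨_, ⟨k, ⟨a, b, hk⟩, rfl⟩, hs⟩
    have hs' : glReindex e.symm k = glReindex (eW e).symm π := by
      have h1 : P' * (glReindex e.symm k) * P'⁻¹ = P' * glReindex (eW e).symm π * P'⁻¹ := hs
      exact mul_left_cancel (mul_right_cancel h1)
    have hm : ((glReindex e.symm k : GL (Fin n) F) : Matrix (Fin n) (Fin n) F)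
        = ((a : Matrix (Fin m) (Fin m) F) ⊗ₖ (b : Matrix (Fin m) (Fin m) F)).submatrix e e := by
      rw [← hk]
      rfl
    have hent : ∀ i j k' l : Fin m, (a : Matrix (Fin m) (Fin m) F) i k' * (b : Matrix (Fin m) (Fin m) F) j l
        = if (![k', l] : Fin 2 → Fin m) = ![i, j] ∘ (Equiv.swap (0 : Fin 2) 1) then 1 else 0 := by
      intro i j k' l
      have h1 := congrFun (congrFun (hm.symm.trans ((congrArg Units.val hs').trans hR))
        (e.symm (i, j))) (e.symm (k', l))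
      simp only [Matrix.submatrix_apply, Equiv.apply_symm_apply, Matrix.kroneckerMap_apply] at h1
      rw [h1]
      simp only [eW, Equiv.trans_apply, Equiv.apply_symm_apply]
      rfl
    let i0 : Fin m := ⟨0, by omega⟩
    let i1 : Fin m := ⟨1, by omega⟩
    have h01 : i1 ≠ i0 := by
      intro h
      have := congrArg Fin.val h
      simp [i0, i1] at this
    have e1 := hent i0 i1 i1 i0
    have e2 := hent i0 i0 i0 i0
    have e3 := hent i0 i0 i1 i0
    have c1 : (![i1, i0] : Fin 2 → Fin m) = ![i0, i1] ∘ (Equiv.swap (0 : Fin 2) 1) := by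
      funext x
      fin_cases x
      · simp [Function.comp]
      · simp [Function.comp]
    have c2 : (![i0, i0] : Fin 2 → Fin m) = ![i0, i0] ∘ (Equiv.swap (0 : Fin 2) 1) := by
      funext x
      fin_cases x
      · simp [Function.comp]
      · simp [Function.comp]
    have c3 : ¬ ((![i1, i0] : Fin 2 → Fin m) = ![i0, i0] ∘ (Equiv.swap (0 : Fin 2) 1)) := by
      intro h
      have h' := congrFun h 0
      simp only [Function.comp, Equiv.swap_apply_left, Matrix.cons_val_zero, Matrix.cons_val_one] at h'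
      exact h01 h'
    rw [if_pos c1] at e1
    rw [if_pos c2] at e2
    rw [if_neg c3] at e3
    rcases mul_eq_zero.mp e3 with h | h
    · rw [h, zero_mul] at e1
      exact zero_ne_one e1
    · rw [h, mul_zero] at e2
      exact zero_ne_one e2

end Cfsg.Agent.Lib.Helper38.UGT
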