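import Cfsg.Agent.Lib.Helper38.UGT.CHP
import Cfsg.Agent.Lib.Helper38.UGT.PWF
import Cfsg.Agent.Lib.Helper38.UGT.SWG
import Cfsg.Agent.Lib.Helper38.UGT.CJ1
import Cfsg.Agent.Lib.Helper38.UGT.CJ2
import Cfsg.Agent.Lib.Helper38.UGT.NR2
import Cfsg.Agent.Lib.Helper38.UGT.NR3
import Cfsg.Agent.Lib.Helper38.UGT.NR4
import Cfsg.Agent.Lib.Helper38.UGT.NR5
import Cfsg.Agent.Lib.Helper59.ASU9.ONB
import Cfsg.Agent.Lib.Helper59.ASU9.HUF
import Cfsg.Agent.Lib.Helper59.ASU9.QSOL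
import Cfsg.Agent.Lib.Helper59.ASU9.SOLV
import Cfsg.Agent.Lib.Helper38.AschG.TPW
import Cfsg.Agent.Lib.Helper77.ASU8.PFIX
import Cfsg.Agent.Lib.Helper77.AschG.W2C
import Cfsg.Agent.Lib.Helper32.AschU.SMA

/-! Ladder UGT: a subgroup of `GU` inside a tensor product subgroup with equal factors lies in a member of the
unitary classes (assembly). -/

set_option autoImplicit false

namespace Cfsg.Agent.Lib.Helper38.UGT

open Cfsg Cfsg.Geo Cfsg.Agent.Lib.Helper77.AschG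
open scoped MatrixGroups Matrix Kronecker

variable {n : ℕ} {F : Type*} [Field F]

/-- a subgroup "of index at most two" contains the commutator subgroup. -/
theorem comm_le_of_index_two {G : Type*} [Group G] (Y N : Subgroup G)
    (h2 : ∀ x ∈ Y, ∀ y ∈ Y, x ∉ N → y ∉ N → x * y ∈ N) : ⁅Y, Y⁆ ≤ N := by
  rw [Subgroup.commutator_le]
  intro x hx y hy
  have hinv : ∀ z : G, z ∉ N → z⁻¹ ∉ N := fun z hz h => hz (by simpa using N.inv_mem h)
  rw [commutatorElement_def]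
  by_cases hxN : x ∈ N
  · by_cases hyN : y ∈ N
    · exact N.mul_mem (N.mul_mem (N.mul_mem hxN hyN) (N.inv_mem hxN)) (N.inv_mem hyN)
    · have h1 : y * x⁻¹ ∉ N := by
        intro h
        apply hyN
        have := N.mul_mem h hxN
        simpa using this
      have h3 := h2 (y * x⁻¹) (Y.mul_mem hy (Y.inv_mem hx)) y⁻¹ (Y.inv_mem hy) h1 (hinv y hyN)
      have h4 := N.mul_mem hxN h3
      have : x * (y * x⁻¹ * y⁻¹) = x * y * x⁻¹ * y⁻¹ := by group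
      rwa [this] at h4
  · by_cases hyN : y ∈ N
    · have h1 : x * y ∉ N := by
        intro h
        apply hxN
        have := N.mul_mem h (N.inv_mem hyN)
        simpa using this
      have h3 := h2 (x * y) (Y.mul_mem hx hy) x⁻¹ (Y.inv_mem hx) h1 (hinv x hxN)
      exact N.mul_mem h3 (N.inv_mem hyN)
    · have h3 := h2 x hx y hy hxN hyN
      have h4 := h2 x⁻¹ (Y.inv_mem hx) y⁻¹ (Y.inv_mem hy) (hinv x hxN) (hinv y hyN)
      have h5 := N.mul_mem h3 h4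
      have : x * y * (x⁻¹ * y⁻¹) = x * y * x⁻¹ * y⁻¹ := by group
      rwa [this] at h5

/-- `q = 2`, `m = 3`: a perfect group of similitudes inside the tensor wreath subgroup is abelian. -/
theorem perfect_comm_32 [Fintype F] (hF : Fintype.card F = 2 ^ 2) (e : Fin n ≃ Fin 3 × Fin 3) (P' : GL (Fin n) F)
    (hT : IsTensorPowerFormStructure (fun x : F => x ^ 2) (hermForm n F 2) (hermForm 3 F 2) (eW e) P')
    (Pc : Subgroup (GL (Fin n) F)) (hle : Pc ≤ tensorWreathSubgroup 3 2 (eW e) P')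
    (hsim : Pc ≤ similarityGroup (hermForm n F 2)) (hperf : ⁅Pc, Pc⁆ = Pc) :
    ∀ x ∈ Pc, ∀ y ∈ Pc, x * y = y * x := by
  have h1 : ⁅tensorWreathSubgroup 3 2 (eW e) P', tensorWreathSubgroup 3 2 (eW e) P'⁆
      ≤ tensorProductSubgroup 3 3 e P' :=
    comm_le_of_index_two _ _ (fun x hx y hy hx' hy' => mul_mem_tensorProduct e P' x y hx hy hx' hy')
  have hPT : Pc ≤ tensorProductSubgroup 3 3 e P' := by
    calc Pc = ⁅Pc, Pc⁆ := hperf.symm
      _ ≤ _ := Subgroup.commutator_mono hle hle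
      _ ≤ _ := h1
  obtain ⟨Q0, hQ0⟩ := exists_slot_subgroup (F := F) 2 (eW e) P' 0
  obtain ⟨Q1, hQ1⟩ := exists_slot_subgroup (F := F) 2 (eW e) P' 1
  have hs0 : Group.IsSolvable Q0 := Cfsg.Agent.Lib.Helper59.ASU9.solvable_of_slot hF (eW e) P' hT 0 Q0
    (fun g hg => ((hQ0 g).1 hg).1) (fun g hg => ((hQ0 g).1 hg).2)
  have hs1 : Group.IsSolvable Q1 := Cfsg.Agent.Lib.Helper59.ASU9.solvable_of_slot hF (eW e) P' hT 1 Q1
    (fun g hg => ((hQ1 g).1 hg).1) (fun g hg => ((hQ1 g).1 hg).2)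
  have hfac : ∀ x ∈ tensorProductSubgroup 3 3 e P' ⊓ similarityGroup (hermForm n F 2),
      ∃ g₀ ∈ Q0, ∃ g₁ ∈ Q1, x = g₀ * g₁ := by
    intro x hx
    obtain ⟨g₀, g₁, hx01, hg0, hg1, ha, hb⟩ := exists_slot_factors 2 hF (by norm_num) e P' hT x hx.1 hx.2
    exact ⟨g₀, (hQ0 g₀).2 ⟨hg0, ha⟩, g₁, (hQ1 g₁).2 ⟨hg1, hb⟩, hx01⟩
  have hcomm : ∀ g₀ ∈ Q0, ∀ g₁ ∈ Q1, g₀ * g₁ = g₁ * g₀ := by
    intro g₀ h0 g₁ h1
    obtain ⟨_, a, ha⟩ := (hQ0 g₀).1 h0
    obtain ⟨_, b, hb⟩ := (hQ1 g₁).1 h1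
    exact slot_units_commute (eW e) P' g₀ g₁ a b ha hb
  have hPN : Pc ≤ tensorProductSubgroup 3 3 e P' ⊓ similarityGroup (hermForm n F 2) := le_inf hPT hsim
  have c0 := Cfsg.Agent.Lib.Helper59.ASU9.central_of_solvable _ Q0 Pc (fun x hx => by
    obtain ⟨g₀, h0, g₁, h1, hx01⟩ := hfac x hx
    exact ⟨g₀, h0, g₁, fun y hy => (hcomm y hy g₁ h1).symm, hx01⟩) hPN hperf hs0
  have c1 := Cfsg.Agent.Lib.Helper59.ASU9.central_of_solvable _ Q1 Pc (fun x hx => by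
    obtain ⟨g₀, h0, g₁, h1, hx01⟩ := hfac x hx
    exact ⟨g₁, h1, g₀, fun y hy => hcomm g₀ h0 y hy, by rw [hx01, hcomm g₀ h0 g₁ h1]⟩) hPN hperf hs1
  intro x hx y hy
  obtain ⟨g₀, h0, g₁, h1, rfl⟩ := hfac y (hPN hy)
  rw [← mul_assoc, c0 x hx g₀ h0, mul_assoc, c1 x hx g₁ h1, mul_assoc]

/-- from a tensor product structure with equal factors to a tensor square structure of the standard form. -/
theorem to_power [Fintype F] (q : ℕ) (hF : Fintype.card F = q ^ 2) {s : ℕ} (e : Fin n ≃ Fin s × Fin s)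
    (P : GL (Fin n) F) (f₁ f₂ : (Fin s → F) → (Fin s → F) → F) (h1 : IsUnitaryFormPow q f₁)
    (h2 : IsUnitaryFormPow q f₂)
    (hT : IsTensorFormStructure (fun x : F => x ^ q) (hermForm n F q) f₁ f₂ e P) :
    ∃ P' : GL (Fin n) F,
      IsTensorPowerFormStructure (fun x : F => x ^ q) (hermForm n F q) (hermForm s F q) (eW e) P' ∧
      tensorProductSubgroup s s e P' = tensorProductSubgroup s s e P := by
  obtain ⟨C₁, hC₁⟩ := Cfsg.Agent.Lib.Helper59.ASU9.exists_onb q hF f₁ h1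
  obtain ⟨C₂, hC₂⟩ := Cfsg.Agent.Lib.Helper59.ASU9.exists_onb q hF f₂ h2
  obtain ⟨P', hP', _, hTP⟩ := exists_changeP e P C₁ C₂
  exact ⟨P', power_form_of_tensor q hF e P P' f₁ f₂ h1 h2 hT C₁ C₂ hC₁ hC₂ hP', hTP⟩

/-- **Block "tensor product with equal factors"** of the general unitary theorem. -/
theorem eq_tensor [Fintype F] (q : ℕ) (hF : Fintype.card F = q ^ 2) (hn : 3 ≤ n)
    (hmain : ∀ Y : Subgroup (GL (Fin n) F), Y ≤ GU n F q →
      (∃ M, InUnitaryClass n F q M ∧ Y ≤ M) ∨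
      (∃ (s : ℕ) (e : Fin n ≃ Fin s × Fin s) (P : GL (Fin n) F) (f₁ f₂ : (Fin s → F) → (Fin s → F) → F),
        2 ≤ s ∧ IsUnitaryFormPow q f₁ ∧ IsUnitaryFormPow q f₂ ∧
        IsTensorFormStructure (fun x : F => x ^ q) (hermForm n F q) f₁ f₂ e P ∧
        Y ≤ tensorProductSubgroup s s e P) ∨
      InUnitaryResidualClass Y)
    (H : Subgroup (GL (Fin n) F)) (hH : H ≤ GU n F q) (s : ℕ) (hs : 2 ≤ s) (e : Fin n ≃ Fin s × Fin s)
    (P : GL (Fin n) F) (f₁ f₂ : (Fin s → F) → (Fin s → F) → F) (h1 : IsUnitaryFormPow q f₁)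
    (h2 : IsUnitaryFormPow q f₂)
    (hT : IsTensorFormStructure (fun x : F => x ^ q) (hermForm n F q) f₁ f₂ e P)
    (hle : H ≤ tensorProductSubgroup s s e P) : ∃ M, InUnitaryClass n F q M ∧ H ≤ M := by
  classical
  obtain ⟨P', hpow, hTP⟩ := to_power q hF e P f₁ f₂ h1 h2 hT
  have hHW : H ≤ tensorWreathSubgroup s 2 (eW e) P' ⊓ GU n F q :=
    le_inf ((hTP ▸ hle : H ≤ tensorProductSubgroup s s e P').trans
      (Cfsg.Agent.Lib.Helper38.AschG.tensor_le_wreath e P')) hH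
  by_cases hgood : 3 ≤ s ∧ ¬ (q = 2 ∧ s = 3)
  · exact ⟨_, Or.inr (Or.inr (Or.inr ⟨s, 2, eW e, P', hermForm s F q, hgood.1, le_rfl, hgood.2,
      (Cfsg.Agent.Lib.Helper59.ASU9.hermForm_unitaryPow q hF s).1, hpow, rfl⟩)), hHW⟩
  rcases hmain (tensorWreathSubgroup s 2 (eW e) P' ⊓ GU n F q) inf_le_right with
    ⟨M, hM, hYM⟩ | ⟨s₂, e₂, P₂, g₁, g₂, hs₂, hg1, hg2, hT₂, hY₂⟩ | hres
  · exact ⟨M, hM, hHW.trans hYM⟩
  · exfalso
    have hcard : s₂ * s₂ = s * s := by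
      have a1 := Fintype.card_congr e₂
      have a2 := Fintype.card_congr e
      simp only [Fintype.card_fin, Fintype.card_prod] at a1 a2
      omega
    obtain rfl : s₂ = s := Nat.mul_self_inj.1 hcard
    obtain ⟨P₂', hpow₂, hTP₂⟩ := to_power q hF e₂ P₂ g₁ g₂ hg1 hg2 hT₂
    obtain ⟨g, hW, c, hc, hg⟩ := exists_conj q (eW e) (eW e₂) P' P₂' hpow hpow₂
    have hcardY := card_inf_GU_eq q _ _ g hW c hc hg
    have hY₂' : tensorWreathSubgroup s₂ 2 (eW e) P' ⊓ GU n F q ≤ tensorProductSubgroup s₂ s₂ e₂ P₂' :=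
      hTP₂ ▸ hY₂
    have hYY₂ : tensorWreathSubgroup s₂ 2 (eW e) P' ⊓ GU n F q
        ≤ tensorWreathSubgroup s₂ 2 (eW e₂) P₂' ⊓ GU n F q :=
      le_inf (hY₂'.trans (Cfsg.Agent.Lib.Helper38.AschG.tensor_le_wreath e₂ P₂')) inf_le_right
    have heq := Subgroup.eq_of_le_of_card_ge hYY₂ hcardY.symm.le
    obtain ⟨sw, hsw1, hsw2, hsw3⟩ := exists_swap q hF hs e₂ P₂' hpow₂
    exact hsw3 (hY₂' (heq ▸ (⟨hsw1, hsw2⟩ : sw ∈ tensorWreathSubgroup s₂ 2 (eW e₂) P₂' ⊓ GU n F q)))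
  · exfalso
    obtain ⟨Pc, hcore, hnoQ, hnoS⟩ := hres
    have hPW : Pc ≤ tensorWreathSubgroup s 2 (eW e) P' := hcore.le.trans inf_le_left
    have hcases : s = 2 ∨ (q = 2 ∧ s = 3) := by
      by_contra hcon
      push Not at hcon
      apply hgood
      refine ⟨by omega, fun h => ?_⟩
      exact hcon.2 h.1 h.2
    rcases hcases with rfl | ⟨rfl, rfl⟩
    · rcases tensorWreath_two_form (by norm_num : 0 < 2) (eW e) P' with ⟨_, Q', hQ', hle'⟩ | ⟨f, hf, hle'⟩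
      · exact hnoQ ⟨Q', hQ', Cfsg.Agent.Lib.Helper77.ASU8.fixesQuad_of_perfect Pc hcore.perfect Q'
          (hPW.trans hle')⟩
      · exact hnoS ⟨f, hf, Cfsg.Agent.Lib.Helper77.ASU8.fixes_of_perfect Pc hcore.perfect f (hPW.trans hle')⟩
    · have hcomm := perfect_comm_32 hF e P' hpow Pc hPW
        (hcore.le.trans (inf_le_right.trans (Cfsg.Agent.Lib.Helper32.AschU.GU_le_sim 2))) hcore.perfect
      refine hcore.nonabelian ⟨⟨fun a b => ?_⟩⟩
      induction a using QuotientGroup.induction_on with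
      | H x =>
        induction b using QuotientGroup.induction_on with
        | H y =>
          rw [← QuotientGroup.mk_mul, ← QuotientGroup.mk_mul]
          congr 1
          exact Subtype.ext (hcomm x x.2 y y.2)

end Cfsg.Agent.Lib.Helper38.UGT
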